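import Mathlib
import Cfsg.Agent.Lib.S4Cor.Basic
import Cfsg.Agent.Lib.Sz.Subfield

/-! Recognition of the Suzuki groups by the orders of their maximal subgroups. -/

set_option autoImplicit false

namespace CfsgLib.S4Cor

open Subgroup Cfsg CfsgLib.Sz

universe u

theorem card_dvd_of_coatoms {A B : Type*} [Group A] [Finite A] [Group B] [Finite B]
    (hA : ∀ p : ℕ, p.Prime → ¬ IsPGroup p A)
    (h : ∀ M : Subgroup A, IsCoatom M → Nat.card M ∣ Nat.card B) : Nat.card A ∣ Nat.card B := by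
  refine (Nat.factorization_prime_le_iff_dvd Nat.card_pos.ne' Nat.card_pos.ne').1 fun p hp => ?_
  have := Fact.mk hp
  obtain ⟨P⟩ : Nonempty (Sylow p A) := inferInstance
  have h1 : (P : Subgroup A) ≠ ⊤ := fun e => hA p hp
    ((e ▸ P.isPGroup' : IsPGroup p (⊤ : Subgroup A)).of_equiv topEquiv)
  obtain ⟨M, hM, hPM⟩ := (eq_top_or_exists_le_coatom (P : Subgroup A)).resolve_left h1
  have h2 := (card_dvd_of_le hPM).trans (h M hM)
  rw [P.card_eq_multiplicity] at h2
  exact (hp.pow_dvd_iff_le_factorization Nat.card_pos.ne').1 h2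

variable {F : Type*} [Field F] [Finite F] {τ : Tits F}

theorem index_of_odd (ht : ∃ t : F, t ≠ 0 ∧ t ≠ 1) {M : Subgroup τ.grp} (hM : IsCoatom M)
    (ho : ¬ 2 ∣ M.index) : M.index = Nat.card F ^ 2 + 1 := by
  obtain ⟨Q⟩ : Nonempty (Sylow 2 M) := inferInstance
  have h1 : ¬ 2 ∣ ((Q : Subgroup M).map M.subtype).index := by
    rw [index_map_subtype]
    exact fun h => (Nat.prime_two.dvd_mul.1 h).elim Q.not_dvd_index ho
  obtain ⟨ω, hω⟩ := Tits.exists_sylow_eq_Upt ((Q.isPGroup'.map M.subtype).toSylow h1)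
  obtain ⟨x, rfl⟩ := Tits.exists_smul_inf ω
  have h2 : τ.U ≤ M.comap (MulAut.conj x : τ.grp ≃* τ.grp) := by
    intro u hu
    have : x * u * x⁻¹ ∈ τ.Upt (x • .inf) := Tits.conj_mem_Upt.2 (τ.Upt_inf ▸ hu)
    rw [← hω] at this
    exact map_subtype_le (Q : Subgroup M) this
  have h3 := Tits.eq_B_of_isCoatom ht ((isCoatom_comap (MulAut.conj x)).2 hM) h2
  rw [← τ.index_B, ← h3, index_comap_of_surjective _ (MulAut.conj x).surjective]

theorem five_dvd (m : ℕ) : 5 ∣ (2 ^ (2 * m + 1)) ^ 2 + 1 := by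
  induction m with
  | zero => norm_num
  | succ m ih =>
    have : (2 ^ (2 * (m + 1) + 1)) ^ 2 + 1 = 15 * (2 ^ (2 * m + 1)) ^ 2 + ((2 ^ (2 * m + 1)) ^ 2 + 1) := by
      ring
    rw [this]
    exact Nat.dvd_add (Dvd.dvd.mul_right (by norm_num) _) ih

theorem eight_le {m : ℕ} (hm : 1 ≤ m) : 8 ≤ 2 ^ (2 * m + 1) :=
  le_trans (by norm_num) (Nat.pow_le_pow_right two_pos (show 3 ≤ 2 * m + 1 by omega))

theorem not_isPGroup_of_card {X : Type*} [Group X] [Finite X] {m : ℕ} (hm : 1 ≤ m)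
    (h : (2 ^ (2 * m + 1)) ^ 2 * (2 ^ (2 * m + 1) - 1) ∣ Nat.card X) (p : ℕ) (hp : p.Prime) :
    ¬ IsPGroup p X := fun hX => by
  have := Fact.mk hp
  obtain ⟨k, hk⟩ := hX.exists_card_eq
  rw [hk] at h
  have h8 := eight_le hm
  have he : 2 ∣ 2 ^ (2 * m + 1) := dvd_pow_self 2 (by omega)
  have h2 : 2 ∣ p ^ k := ((he.trans (dvd_pow_self _ two_ne_zero)).mul_right _).trans h
  obtain rfl : 2 = p := (Nat.prime_dvd_prime_iff_eq Nat.prime_two hp).1 (Nat.prime_two.dvd_of_dvd_pow h2)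
  obtain ⟨j, -, hj⟩ := (Nat.dvd_prime_pow Nat.prime_two).1 ((Dvd.intro_left _ rfl).trans h)
  rcases j with _ | j
  · omega
  · rw [pow_succ] at hj; omega

theorem s3728 (hT : T3.{u}) {G : Type u} [Group G] [Finite G] {F : Type*} [Field F] [Fintype F] {m : ℕ}
    (hm : 1 ≤ m) (hF : Fintype.card F = 2 ^ (2 * m + 1))
    (h : ∀ k : ℕ, (∃ M : Subgroup G, IsCoatom M ∧ k = Nat.card M) ↔
      ∃ M : Subgroup (tits hF).grp, IsCoatom M ∧ k = Nat.card M) : Nonempty (G ≃* (tits hF).grp) := by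
  have ht := exists_ne_zero_one hm hF
  have hF' : Nat.card F = 2 ^ (2 * m + 1) := by rwa [Nat.card_eq_fintype_card]
  have hs := Tits.isSimpleGroup_grp (τ := tits hF) ht
  obtain ⟨M0, hM0, e0⟩ := (h _).2 ⟨_, Tits.isCoatom_B ht, rfl⟩
  have hB := (tits hF).card_B
  rw [hF'] at hB
  have hc : Nat.card G = Nat.card (tits hF).grp := by
    refine Nat.dvd_antisymm (card_dvd_of_coatoms (not_isPGroup_of_card hm ?_) fun M hM => ?_)
      (card_dvd_of_coatoms (not_isPGroup_of_card hm ?_) fun M hM => ?_)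
    · rw [← hB, e0]; exact M0.card_subgroup_dvd_card
    · obtain ⟨M', -, e⟩ := (h _).1 ⟨M, hM, rfl⟩
      rw [e]; exact M'.card_subgroup_dvd_card
    · rw [← hB]; exact card_subgroup_dvd_card _
    · obtain ⟨M', -, e⟩ := (h _).2 ⟨M, hM, rfl⟩
      rw [e]; exact M'.card_subgroup_dvd_card
  have hidx : ∀ M : Subgroup G, IsCoatom M →
      ∃ M' : Subgroup (tits hF).grp, IsCoatom M' ∧ M'.index = M.index := fun M hM => by
    obtain ⟨M', hM', e⟩ := (h _).1 ⟨M, hM, rfl⟩
    refine ⟨M', hM', Nat.eq_of_mul_eq_mul_left (Nat.card_pos (α := M')) ?_⟩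
    rw [M'.card_mul_index, ← e, M.card_mul_index, hc]
  have hnt : Nontrivial G := (Subgroup.nontrivial_iff (G := G)).1 ⟨M0, ⊤, hM0.1⟩
  obtain ⟨N, ⟨hN, hN1⟩, hmax⟩ := exists_maximal_of_wellFoundedGT
    (fun N : Subgroup G => N.Normal ∧ N ≠ ⊤) ⟨⊥, inferInstance, bot_ne_top⟩
  have hf := QuotientGroup.mk'_surjective N
  have hsimp : IsSimpleGroup (G ⧸ N) := by
    have : Nontrivial (G ⧸ N) := QuotientGroup.nontrivial_iff.2 hN1
    refine ⟨fun K hK => ?_⟩
    by_cases h1 : K = ⊤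
    · exact Or.inr h1
    · left
      have h2 := hmax (y := K.comap (QuotientGroup.mk' N))
        ⟨inferInstance, fun e => h1 (comap_injective hf (by rw [e, comap_top]))⟩
        (QuotientGroup.le_comap_mk' N K)
      rw [eq_bot_iff]
      intro x hx
      obtain ⟨g, rfl⟩ := hf x
      exact (QuotientGroup.eq_one_iff g).2 (h2 hx)
  by_cases hcomm : IsMulCommutative (G ⧸ N)
  · exfalso
    have hp := exists_prime_card hsimp hcomm
    have hco : IsCoatom (⊥ : Subgroup (G ⧸ N)) :=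
      ⟨bot_ne_top, fun K hK => (hsimp.eq_bot_or_eq_top_of_normal K
        (normal_of_isMulCommutative K)).resolve_left hK.ne'⟩
    obtain ⟨M', hM', e⟩ := hidx _ (isCoatom_comap_of_surjective hf hco)
    rw [index_comap_of_surjective _ hf, index_bot] at e
    by_cases h2 : 2 ∣ M'.index
    · rw [e, Nat.prime_dvd_prime_iff_eq Nat.prime_two hp] at h2
      have hn : M'.Normal := normal_of_index_eq_two (e.trans h2.symm)
      rcases hs.eq_bot_or_eq_top_of_normal M' hn with h3 | h3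
      · rw [h3, index_bot, ← h2] at e
        exact not_isPGroup_of_card hm (hB ▸ card_subgroup_dvd_card _) 2 Nat.prime_two
          (IsPGroup.of_card (n := 1) e)
      · exact hM'.1 h3
    · have h3 := index_of_odd ht hM' h2
      rw [e, hF'] at h3
      have h4 := (Nat.prime_dvd_prime_iff_eq Nat.prime_five hp).1 (h3 ▸ five_dvd m)
      have := eight_le hm
      nlinarith
  · have h3 : ¬ 3 ∣ Nat.card (G ⧸ N) := fun h3 =>
      Tits.not_three_dvd_card (τ := tits hF) hF' (hc ▸ h3.trans (card_quotient_dvd_card N))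
    obtain ⟨F1, _, _, m1, hm1, hF1, ⟨e⟩⟩ := sz_model (hT _ hsimp hcomm h3)
    have hF1' : Nat.card F1 = 2 ^ (2 * m1 + 1) := by rwa [Nat.card_eq_fintype_card]
    have hg : Function.Surjective (e.toMonoidHom.comp (QuotientGroup.mk' N)) := e.surjective.comp hf
    obtain ⟨M', hM', e'⟩ := hidx _ (isCoatom_comap_of_surjective hg
      (Tits.isCoatom_B (exists_ne_zero_one hm1 hF1)))
    rw [index_comap_of_surjective _ hg, Tits.index_B] at e'
    have h4 := index_of_odd ht hM' (by rw [e', ← Tits.card_Pt (tits hF1)]; exact Tits.not_two_dvd_card_Pt _)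
    have h5 : Nat.card F1 = Nat.card F := by
      rw [e'] at h4
      exact Nat.pow_left_injective two_ne_zero (Nat.add_right_cancel h4)
    obtain rfl : m1 = m := by
      rw [hF1', hF'] at h5
      have := Nat.pow_right_injective le_rfl h5
      omega
    obtain ⟨e2⟩ := nonempty_sub_equiv hF1 hF dvd_rfl (E := ⊤) (by
      rw [← hF']; exact Nat.card_congr (Subfield.topEquiv (K := F)).toEquiv)
    have e3 : G ⧸ N ≃* (tits hF).grp :=
      e.trans (e2.trans ((MulEquiv.subgroupCongr Tits.sub_top).trans topEquiv))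
    have hb : Function.Bijective (QuotientGroup.mk' N) :=
      (Nat.bijective_iff_surjective_and_card _).2 ⟨hf, by rw [hc, Nat.card_congr e3.toEquiv]⟩
    exact ⟨(MulEquiv.ofBijective _ hb).trans e3⟩

end CfsgLib.S4Cor
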